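import Cfsg.Agent.H703.KS.Asm
import Cfsg.Agent.H672.PR.Core

/-!
# The general parity lemma: the corner of an integral idempotent

`exists_z` : the Gram determinant of `e K[G] e` is `± z² ∏ (χ(1)/|G|)^((m χ)²)` with `z ∈ ℂ` transformed by the automorphisms
of `ℂ` over `K` according to the sign of the action on the characters.
`exists_val` : with the local integers: `z² = p^n u`, `u` a unit, `n ≡ ∑ (m χ)² (v|G| - v χ(1))` modulo `2`.
-/

set_option autoImplicit false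

open Matrix Cfsg

namespace Cfsg.Agent.H672.PR

open Cfsg.Agent.Characters Cfsg.Agent.H162.KS Cfsg.Agent.H703.KS Cfsg.Agent.Blocks.Central Cfsg.Agent.Blocks.LocalRing

universe u

section

variable {K : Type*} [Field K] [Algebra K ℂ] {G : Type u} [Group G] [Fintype G]

/-- the sign of the action of `σ` on the characters of odd multiplicity, in terms of a transversal `T` of the cycles -/
def sg [Fintype (IrrCharacter G)] (m : IrrCharacter G → ℕ) (T : Finset (IrrCharacter G)) [DecidableEq (IrrCharacter G)] :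
    ℤˣ := ∏ χ, (if χ ∈ T then 1 else -1) ^ (m χ ^ 2)

/-- **the corner of an `O`-integral idempotent** -/
theorem exists_z [Fintype (IrrCharacter G)] [DecidableEq (IrrCharacter G)] {O : Subring K} {π : K} (hπ : π ∈ O)
    (hπ' : π⁻¹ ∉ O)
    (hfac : ∀ z : K, z ≠ 0 → ∃ (n : ℤ) (u : K), u ∈ O ∧ u⁻¹ ∈ O ∧ z = π ^ n * u) {e : MonoidAlgebra K G} (he : e * e = e)
    (heO : ∀ g, e.coeff g ∈ O) (m : IrrCharacter G → ℕ) (hm : ∀ χ : IrrCharacter G, ev (χ : G → ℂ) e = m χ) :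
    ∃ (z : ℂ) (k : K), z ≠ 0 ∧ algebraMap K ℂ k = z ^ 2 ∧
      (∀ (τ : ℂ ≃ₐ[K] ℂ) (σ : Equiv.Perm (IrrCharacter G)), (∀ χ g, (σ χ : G → ℂ) g = τ ((χ : G → ℂ) g)) →
        ∀ T, Trans σ T → τ z = ((sg m T : ℤˣ) : ℤ) * z) ∧
      ∃ d : K, d ≠ 0 ∧
      (d ^ 2 * k * ∏ χ : IrrCharacter G, ((charDegree (χ : G → ℂ) : K) / (Nat.card G : K)) ^ (m χ ^ 2)) ∈ O ∧
      (d ^ 2 * k * ∏ χ : IrrCharacter G, ((charDegree (χ : G → ℂ) : K) / (Nat.card G : K)) ^ (m χ ^ 2))⁻¹ ∈ O := by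
  set P : K := ∏ χ : IrrCharacter G, ((charDegree (χ : G → ℂ) : K) / (Nat.card G : K)) ^ (m χ ^ 2) with hP
  let b := Module.finBasis K (LinearMap.range (cproj e))
  have hch : ∀ χ : IrrCharacter G, IsCharacter G (χ : G → ℂ) := by
    intro χ
    obtain ⟨n, ρ, _, hρ⟩ := χ.2
    exact ⟨n, ρ, hρ⟩
  have hN : Fintype.card (Fin (Module.finrank K (LinearMap.range (cproj e)))) = ∑ i : IrrCharacter G, m i ^ 2 := by
    rw [Fintype.card_fin, finrank_corner he m fun χ => hm χ]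
  obtain ⟨z, hz, s, hδ⟩ := exists_det' (fun i : IrrCharacter G => (i : G → ℂ)) hch he hm hN
    (fun j => (b j : MonoidAlgebra K G))
    (fun j => (cproj_of_mem he (b j).2).1) (fun j => (cproj_of_mem he (b j).2).2)
  obtain ⟨h0, d, hd, h1, h2⟩ := exists_sq_gram hπ hπ' hfac he heO b
  set D : K := (Matrix.of fun j l => ((b j : MonoidAlgebra K G) * (b l : MonoidAlgebra K G)).coeff 1).det with hD
  have hcast : ∀ χ : IrrCharacter G, (χ : G → ℂ) 1 / (Nat.card G : ℂ) =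
      algebraMap K ℂ ((charDegree (χ : G → ℂ) : K) / (Nat.card G : K)) := by
    intro χ
    rw [map_div₀, map_natCast, map_natCast, Blocks.Basic.irr_one_eq_charDegree χ.2]
  have h3 : algebraMap K ℂ D = ((s : ℤ) : ℂ) * z ^ 2 * algebraMap K ℂ P := by
    have h4 := hδ fun i => (i : G → ℂ) 1 / (Nat.card G : ℂ)
    have h5 : (Matrix.of fun j l => ∑ i : IrrCharacter G, (i : G → ℂ) 1 / (Nat.card G : ℂ) *
        ev (i : G → ℂ) ((b j : MonoidAlgebra K G) * (b l : MonoidAlgebra K G))) =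
        (Matrix.of fun j l => ((b j : MonoidAlgebra K G) * (b l : MonoidAlgebra K G)).coeff 1).map (algebraMap K ℂ) := by
      ext j l
      rw [of_apply, map_apply, of_apply, coeff_one_eq_ev]
    rw [h5] at h4
    rw [hD, RingHom.map_det, RingHom.mapMatrix_apply, h4, hP, map_prod]
    congr 1
    refine Finset.prod_congr rfl fun χ _ => ?_
    rw [map_pow, hcast]
  have hD0 : algebraMap K ℂ D ≠ 0 := (map_ne_zero _).2 h0
  have hz0 : z ≠ 0 := by
    rintro rfl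
    apply hD0
    rw [h3]
    ring
  have hP0 : P ≠ 0 := by
    intro h
    apply hD0
    rw [h3, h, map_zero, mul_zero]
  have hs : ((s : ℤ) : K) * ((s : ℤ) : K) = 1 := by
    rw [← Int.cast_mul, ← Units.val_mul, ← sq, Int.units_sq]
    simp
  have hs' : ((s : ℤ) : ℂ) * ((s : ℤ) : ℂ) = 1 := by
    rw [← Int.cast_mul, ← Units.val_mul, ← sq, Int.units_sq]
    simp
  have hsO : ((s : ℤ) : K) ∈ O := intCast_mem O _
  refine ⟨z, (s : ℤ) * D * P⁻¹, hz0, ?_, ?_, d, hd, ?_, ?_⟩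
  · rw [map_mul, map_mul, map_intCast, map_inv₀, h3]
    have h6 : algebraMap K ℂ P ≠ 0 := (map_ne_zero _).2 hP0
    calc ((s : ℤ) : ℂ) * (((s : ℤ) : ℂ) * z ^ 2 * algebraMap K ℂ P) * (algebraMap K ℂ P)⁻¹ =
        (((s : ℤ) : ℂ) * ((s : ℤ) : ℂ)) * z ^ 2 * (algebraMap K ℂ P * (algebraMap K ℂ P)⁻¹) := by ring
      _ = z ^ 2 := by rw [hs', mul_inv_cancel₀ h6, one_mul, mul_one]
  · intro τ σ hσ T hT
    have hmσ : ∀ χ, m (σ χ) = m χ := by
      intro χ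
      have h6 : (m (σ χ) : ℂ) = (m χ : ℂ) := by
        rw [← hm, ← map_natCast (τ : ℂ →+* ℂ) (m χ), ← hm, ev_apply, ev_apply]
        change _ = τ _
        rw [map_sum]
        refine Finset.sum_congr rfl fun g _ => ?_
        rw [map_mul, τ.commutes, hσ]
      exact_mod_cast h6
    rw [hz τ σ hmσ hσ, sign_lift σ hmσ T hT]
    rfl
  · have h4 : d ^ 2 * ((s : ℤ) * D * P⁻¹) * P = ((s : ℤ) : K) * (d ^ 2 * D) := by
      field_simp
    rw [h4]
    exact O.mul_mem hsO h1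
  · have h4 : d ^ 2 * ((s : ℤ) * D * P⁻¹) * P = ((s : ℤ) : K) * (d ^ 2 * D) := by
      field_simp
    have h5 : ((s : ℤ) : K)⁻¹ = ((s : ℤ) : K) := inv_eq_of_mul_eq_one_left hs
    rw [h4, mul_inv, h5]
    exact O.mul_mem hsO h2

/-- **the corner of a locally integral idempotent** -/
theorem exists_val [Fintype (IrrCharacter G)] [DecidableEq (IrrCharacter G)] {p : ℕ} {M : Ideal AlgInt}
    (hM : IsPModular p M)
    (hfac : ∀ z : K, z ≠ 0 → ∃ (n : ℤ) (u : K), z = (p : K) ^ n * u ∧ MemLocalRing M (algebraMap K ℂ u) ∧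
      MemLocalRing M (algebraMap K ℂ u)⁻¹)
    {e : MonoidAlgebra K G} (he : e * e = e) (heO : ∀ g, MemLocalRing M (algebraMap K ℂ (e.coeff g)))
    (m : IrrCharacter G → ℕ) (hm : ∀ χ : IrrCharacter G, ev (χ : G → ℂ) e = m χ) :
    ∃ (z : ℂ) (k u : K) (n : ℤ), z ≠ 0 ∧ algebraMap K ℂ k = z ^ 2 ∧ k = (p : K) ^ n * u ∧ Un (locO K hM) u ∧
      (Even n ↔ Even (∑ χ : IrrCharacter G, m χ ^ 2 *
        ((Nat.card G).factorization p - (charDegree (χ : G → ℂ)).factorization p))) ∧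
      (∀ (τ : ℂ ≃ₐ[K] ℂ) (σ : Equiv.Perm (IrrCharacter G)), (∀ χ g, (σ χ : G → ℂ) g = τ ((χ : G → ℂ) g)) →
        ∀ T, Trans σ T → τ z = ((sg m T : ℤˣ) : ℤ) * z) := by
  have hfac' : ∀ z : K, z ≠ 0 → ∃ (n : ℤ) (u : K), u ∈ locO K hM ∧ u⁻¹ ∈ locO K hM ∧ z = (p : K) ^ n * u := by
    intro z hz
    obtain ⟨n, u, h1, h2, h3⟩ := hfac z hz
    exact ⟨n, u, h2, by rw [mem_locO, map_inv₀]; exact h3, h1⟩
  obtain ⟨z, k, hz0, hk, hgal, d, hd, h1, h2⟩ := exists_z (p_mem hM) (p_inv_not_mem hM) hfac' he heO m hm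
  have hdiv : ∀ χ : IrrCharacter G, ∃ u : K, Un (locO K hM) u ∧
      (charDegree (χ : G → ℂ) : K) / (Nat.card G : K) =
        ((p : K) ^ ((Nat.card G).factorization p - (charDegree (χ : G → ℂ)).factorization p))⁻¹ * u :=
    fun χ => div_fac hM (Blocks.CyclicUpper.charDegree_dvd χ.2) Nat.card_pos.ne'
  choose u hu hr using hdiv
  have : CharZero K := (algebraMap K ℂ).charZero
  have hp0 : (p : K) ≠ 0 := by exact_mod_cast hM.1.ne_zero
  set S : ℕ := ∑ χ : IrrCharacter G, m χ ^ 2 *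
        ((Nat.card G).factorization p - (charDegree (χ : G → ℂ)).factorization p) with hS
  have hprod : ∏ χ : IrrCharacter G, ((charDegree (χ : G → ℂ) : K) / (Nat.card G : K)) ^ (m χ ^ 2) =
      ((p : K) ^ S)⁻¹ * ∏ χ, u χ ^ (m χ ^ 2) := by
    rw [hS, ← Finset.prod_pow_eq_pow_sum, ← Finset.prod_inv_distrib, ← Finset.prod_mul_distrib]
    refine Finset.prod_congr rfl fun x _ => ?_
    rw [hr x, mul_pow, inv_pow, ← pow_mul, mul_comm (m x ^ 2)]
  have hU : Un (locO K hM) (∏ χ, u χ ^ (m χ ^ 2)) := Un.prod _ fun x _ => (hu x).pow _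
  obtain ⟨N, w, hw, hw', hdw⟩ := hfac' d hd
  have hw0 : w ≠ 0 := by
    rintro rfl
    exact hd (by rw [hdw, mul_zero])
  have hwU : Un (locO K hM) w := ⟨hw, hw', hw0⟩
  have hk0 : k ≠ 0 := by
    rintro rfl
    rw [map_zero] at hk
    exact hz0 (pow_eq_zero_iff two_ne_zero |>.1 hk.symm)
  set V := d ^ 2 * k * ∏ χ : IrrCharacter G, ((charDegree (χ : G → ℂ) : K) / (Nat.card G : K)) ^ (m χ ^ 2) with hV
  have hV0 : V ≠ 0 := by
    rw [hV, hprod]
    exact mul_ne_zero (mul_ne_zero (pow_ne_zero _ hd) hk0) (mul_ne_zero (inv_ne_zero (pow_ne_zero _ hp0)) hU.2.2)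
  have hVU : Un (locO K hM) V := ⟨h1, h2, hV0⟩
  refine ⟨z, k, V * (w ^ 2 * ∏ χ, u χ ^ (m χ ^ 2))⁻¹, S - 2 * N, hz0, hk, ?_, hVU.mul ((hwU.pow 2).mul hU).inv, ?_, hgal⟩
  · have hU0 := hU.2.2
    have h3 : (p : K) ^ N ≠ 0 := zpow_ne_zero _ hp0
    rw [hV, hprod, hdw, zpow_sub₀ hp0, zpow_natCast, mul_comm (2 : ℤ) N, _root_.zpow_mul]
    have h4 : ((p : K) ^ N) ^ (2 : ℤ) = ((p : K) ^ N) ^ 2 := by norm_cast
    rw [h4]
    field_simp
  · rw [Int.even_sub, ← Int.even_coe_nat]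
    simp

/-- the case of a trivial sign -/
theorem even_of_mem {p : ℕ} {M : Ideal AlgInt} (hM : IsPModular p M)
    (hfac : ∀ z : K, z ≠ 0 → ∃ (n : ℤ) (u : K), z = (p : K) ^ n * u ∧ MemLocalRing M (algebraMap K ℂ u) ∧
      MemLocalRing M (algebraMap K ℂ u)⁻¹) {k u : K} {n : ℤ} (hk : k = (p : K) ^ n * u) (hu : Un (locO K hM) u)
    {y : K} (hy : k = y ^ 2) : Even n := by
  have : CharZero K := (algebraMap K ℂ).charZero
  have hp0 : (p : K) ≠ 0 := by exact_mod_cast hM.1.ne_zero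
  have hy0 : y ≠ 0 := by
    rintro rfl
    rw [hk] at hy
    exact mul_ne_zero (zpow_ne_zero _ hp0) hu.2.2 (by rw [hy]; ring)
  obtain ⟨l, v, h1, h2, h3⟩ := hfac y hy0
  have hv0 : v ≠ 0 := by
    rintro rfl
    exact hy0 (by rw [h1, mul_zero])
  have hv : Un (locO K hM) v := ⟨h2, by rw [mem_locO, map_inv₀]; exact h3, hv0⟩
  have h4 : (p : K) ^ (n - 2 * l) = v ^ 2 * u⁻¹ := by
    have hu0 := hu.2.2
    rw [zpow_sub₀ hp0, mul_comm (2 : ℤ) l, _root_.zpow_mul]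
    have h5 : ((p : K) ^ l) ^ (2 : ℤ) = ((p : K) ^ l) ^ 2 := by norm_cast
    have h6 : (p : K) ^ l ≠ 0 := zpow_ne_zero _ hp0
    rw [h5]
    have h7 : (p : K) ^ n * u = ((p : K) ^ l * v) ^ 2 := by rw [← hk, hy, h1]
    field_simp
    rw [h7]
    ring
  have h8 := zpow_eq_zero_of_unit (p_mem hM) (p_inv_not_mem hM) (k := n - 2 * l) (by
    rw [h4]
    exact (hv.pow 2).mul hu.inv)
  exact ⟨l, by omega⟩

end

end Cfsg.Agent.H672.PR
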